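-- Team project CS3 (S4284), part [END], package [FPF] (helper6).
import Mathlib
import Cfsg.Agent.Lib.Helper79.CS3.EndDefs

set_option autoImplicit false

namespace Cfsg.Agent.Lib.Helper6.CS3

universe u

/-- Reindexing identity over the `p + 1` lines of `(ZMod p)²`. -/
theorem fpf_reindex {A : Type u} [CommMonoid A] (p : ℕ) [Fact p.Prime]
    (f : ZMod p × ZMod p → A) :
    (∏ c : ZMod p, ∏ k : ZMod p, f (k, c * k)) * ∏ k : ZMod p, f (0, k)
      = f (0, 0) ^ p * ∏ e : ZMod p × ZMod p, f e := by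
  have h0 : (∏ c : ZMod p, f (0, c * 0)) = f (0, 0) ^ p := by
    simp [Finset.prod_const, Finset.card_univ, ZMod.card]
  have h1 : ∀ k ∈ (Finset.univ : Finset (ZMod p)).erase 0,
      (∏ c : ZMod p, f (k, c * k)) = ∏ j : ZMod p, f (k, j) := by
    intro k hk
    have hk0 : k ≠ 0 := (Finset.mem_erase.mp hk).1
    exact Fintype.prod_equiv (Equiv.mulRight₀ k hk0) _ _ (fun c => rfl)
  rw [Finset.prod_comm, Fintype.prod_prod_type,
    ← Finset.mul_prod_erase Finset.univ (fun k => ∏ c : ZMod p, f (k, c * k)) (Finset.mem_univ 0),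
    ← Finset.mul_prod_erase Finset.univ (fun k => ∏ j : ZMod p, f (k, j)) (Finset.mem_univ 0),
    Finset.prod_congr rfl h1, h0]
  simp only [mul_comm, mul_left_comm]

/-- Two commuting endomorphisms of order dividing `p` of a finite abelian `p'`-group such that
all fixed points of the non-trivial products lie in a subgroup `V0`: then `V0` is everything. -/
theorem fpf_abstract {A : Type u} [CommGroup A] [Finite A] (p : ℕ) [Fact p.Prime]
    (hpA : ¬ p ∣ Nat.card A) (s t : Monoid.End A) (hs : s ^ p = 1) (ht : t ^ p = 1)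
    (hc : Commute s t) (V0 : Subgroup A)
    (hfix : ∀ i j : ℕ, ¬ (p ∣ i ∧ p ∣ j) → ∀ y : A, (s ^ i * t ^ j) y = y → y ∈ V0) (v : A) :
    v ∈ V0 := by
  classical
  have hp : p.Prime := Fact.out
  let φ : ZMod p × ZMod p → Monoid.End A := fun e => s ^ e.1.val * t ^ e.2.val
  have hφ : ∀ e e' : ZMod p × ZMod p, φ (e + e') = φ e * φ e' := by
    intro e e'
    show s ^ (e.1 + e'.1).val * t ^ (e.2 + e'.2).val
      = s ^ e.1.val * t ^ e.2.val * (s ^ e'.1.val * t ^ e'.2.val)
    have h1 : s ^ (e.1 + e'.1).val = s ^ e.1.val * s ^ e'.1.val := by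
      rw [ZMod.val_add, ← pow_eq_pow_mod _ hs, pow_add]
    have h2 : t ^ (e.2 + e'.2).val = t ^ e.2.val * t ^ e'.2.val := by
      rw [ZMod.val_add, ← pow_eq_pow_mod _ ht, pow_add]
    rw [h1, h2]
    exact (hc.pow_pow e'.1.val e.2.val).mul_mul_mul_comm _ _
  have hφ' : ∀ (e e' : ZMod p × ZMod p) (y : A), φ e (φ e' y) = φ (e + e') y := by
    intro e e' y
    rw [hφ]; rfl
  have hfixφ : ∀ e : ZMod p × ZMod p, e ≠ 0 → ∀ y : A, φ e y = y → y ∈ V0 := by
    intro e he y hy
    refine hfix e.1.val e.2.val ?_ y hy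
    rintro ⟨h1, h2⟩
    apply he
    have h3 : e.1.val = 0 := Nat.eq_zero_of_dvd_of_lt h1 (ZMod.val_lt e.1)
    have h4 : e.2.val = 0 := Nat.eq_zero_of_dvd_of_lt h2 (ZMod.val_lt e.2)
    exact Prod.ext ((ZMod.val_eq_zero e.1).mp h3) ((ZMod.val_eq_zero e.2).mp h4)
  let f : ZMod p × ZMod p → A := fun e => φ e v
  have hS : ∀ c : ZMod p, (∏ k : ZMod p, f (k, c * k)) ∈ V0 := by
    intro c
    apply hfixφ (1, c) (by intro h; exact one_ne_zero (congrArg Prod.fst h))
    rw [map_prod]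
    have h1 : ∀ k : ZMod p, φ (1, c) (f (k, c * k)) = f (k + 1, c * (k + 1)) := by
      intro k
      show φ (1, c) (φ (k, c * k) v) = φ (k + 1, c * (k + 1)) v
      rw [hφ']
      have h2 : ((1, c) + (k, c * k) : ZMod p × ZMod p) = (k + 1, c * (k + 1)) := by
        ext
        · simp [add_comm]
        · simp; ring
      rw [h2]
    rw [Finset.prod_congr rfl (fun k _ => h1 k)]
    exact Fintype.prod_equiv (Equiv.addRight 1) _ _ (fun k => rfl)
  have hSinf : (∏ k : ZMod p, f (0, k)) ∈ V0 := by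
    apply hfixφ (0, 1) (by intro h; exact one_ne_zero (congrArg Prod.snd h))
    rw [map_prod]
    have h1 : ∀ k : ZMod p, φ (0, 1) (f (0, k)) = f (0, k + 1) := by
      intro k
      show φ (0, 1) (φ (0, k) v) = φ (0, k + 1) v
      rw [hφ']
      have h2 : ((0, 1) + (0, k) : ZMod p × ZMod p) = (0, k + 1) := by
        ext
        · simp
        · simp [add_comm]
      rw [h2]
    rw [Finset.prod_congr rfl (fun k _ => h1 k)]
    exact Fintype.prod_equiv (Equiv.addRight 1) _ _ (fun k => rfl)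
  have hT : (∏ e : ZMod p × ZMod p, f e) ∈ V0 := by
    apply hfixφ (1, 0) (by intro h; exact one_ne_zero (congrArg Prod.fst h))
    rw [map_prod]
    have h1 : ∀ e : ZMod p × ZMod p, φ (1, 0) (f e) = f (e + (1, 0)) := by
      intro e
      show φ (1, 0) (φ e v) = φ (e + (1, 0)) v
      rw [hφ', add_comm]
    rw [Finset.prod_congr rfl (fun e _ => h1 e)]
    exact Fintype.prod_equiv (Equiv.addRight (1, 0)) _ _ (fun e => rfl)
  have hid := fpf_reindex p f
  have hf0 : f (0, 0) = v := by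
    show (s ^ (0 : ZMod p).val * t ^ (0 : ZMod p).val) v = v
    simp [ZMod.val_zero]
  rw [hf0] at hid
  have hvp : v ^ p ∈ V0 := by
    have h1 : v ^ p = ((∏ c : ZMod p, ∏ k : ZMod p, f (k, c * k)) * ∏ k : ZMod p, f (0, k))
        * (∏ e : ZMod p × ZMod p, f e)⁻¹ := by
      rw [hid, mul_inv_cancel_right]
    rw [h1]
    exact V0.mul_mem (V0.mul_mem (Subgroup.prod_mem V0 (fun c _ => hS c)) hSinf) (V0.inv_mem hT)
  have hcop : (Nat.card A).Coprime p :=
    Nat.Coprime.symm ((Nat.Prime.coprime_iff_not_dvd hp).mpr hpA)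
  have h2 := (powCoprime hcop).symm_apply_apply v
  rw [powCoprime_apply, powCoprime_symm_apply] at h2
  rw [← h2]
  exact V0.zpow_mem hvp _

/-- [FPF] -/
theorem pkgFPF : Cfsg.Agent.Lib.Helper79.CS3.PkgFPF.{u} := by
  intro G _ _ Q V0 p g h hp hQc hpQ hV0le hV0ne hg hh hgp hhp hcomm hfix
  have hfact : Fact p.Prime := ⟨hp⟩
  let instC : CommGroup ↥Q :=
    { (inferInstance : Group ↥Q) with
      mul_comm := fun a b => Subtype.ext (hQc a a.2 b b.2) }
  let s : Monoid.End ↥Q :=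
    { toFun := fun y => ⟨g * y * g⁻¹, hg y y.2⟩
      map_one' := by apply Subtype.ext; simp
      map_mul' := by intro a b; apply Subtype.ext; simp }
  let t : Monoid.End ↥Q :=
    { toFun := fun y => ⟨h * y * h⁻¹, hh y y.2⟩
      map_one' := by apply Subtype.ext; simp
      map_mul' := by intro a b; apply Subtype.ext; simp }
  have hsn : ∀ (n : ℕ) (y : ↥Q), (((s ^ n) y : ↥Q) : G) = g ^ n * y * (g ^ n)⁻¹ := by
    intro n
    induction n with
    | zero => intro y; simp
    | succ n ih =>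
      intro y
      rw [pow_succ']
      show g * (((s ^ n) y : ↥Q) : G) * g⁻¹ = _
      rw [ih, pow_succ']; group
  have htn : ∀ (n : ℕ) (y : ↥Q), (((t ^ n) y : ↥Q) : G) = h ^ n * y * (h ^ n)⁻¹ := by
    intro n
    induction n with
    | zero => intro y; simp
    | succ n ih =>
      intro y
      rw [pow_succ']
      show h * (((t ^ n) y : ↥Q) : G) * h⁻¹ = _
      rw [ih, pow_succ']; group
  have hs : s ^ p = 1 := by
    refine DFunLike.ext _ _ (fun y => ?_)
    apply Subtype.ext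
    rw [hsn]
    show g ^ p * (y : G) * (g ^ p)⁻¹ = (y : G)
    rw [hgp y y.2, mul_inv_cancel_right]
  have ht : t ^ p = 1 := by
    refine DFunLike.ext _ _ (fun y => ?_)
    apply Subtype.ext
    rw [htn]
    show h ^ p * (y : G) * (h ^ p)⁻¹ = (y : G)
    rw [hhp y y.2, mul_inv_cancel_right]
  have hc : Commute s t := by
    refine DFunLike.ext _ _ (fun y => ?_)
    apply Subtype.ext
    show g * (h * (y : G) * h⁻¹) * g⁻¹ = h * (g * (y : G) * g⁻¹) * h⁻¹
    have h1 := hcomm y y.2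
    simp only [mul_inv_rev, mul_assoc] at h1 ⊢
    exact h1
  have hfix' : ∀ i j : ℕ, ¬ (p ∣ i ∧ p ∣ j) → ∀ y : ↥Q, (s ^ i * t ^ j) y = y →
      y ∈ V0.subgroupOf Q := by
    intro i j hij y hy
    rw [Subgroup.mem_subgroupOf]
    apply hfix i j hij y y.2
    have h1 : (((s ^ i * t ^ j) y : ↥Q) : G) = (y : G) := congrArg Subtype.val hy
    have h2 : (((s ^ i * t ^ j) y : ↥Q) : G)
        = g ^ i * (h ^ j * (y : G) * (h ^ j)⁻¹) * (g ^ i)⁻¹ := by
      show (((s ^ i) ((t ^ j) y) : ↥Q) : G) = _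
      rw [hsn, htn]
    rw [h2] at h1
    calc g ^ i * h ^ j * (y : G)
        = (g ^ i * (h ^ j * (y : G) * (h ^ j)⁻¹) * (g ^ i)⁻¹) * (g ^ i * h ^ j) := by group
      _ = (y : G) * (g ^ i * h ^ j) := by rw [h1]
  have hall := fpf_abstract p hpQ s t hs ht hc (V0.subgroupOf Q) hfix'
  apply hV0ne
  apply le_antisymm hV0le
  intro y hy
  exact Subgroup.mem_subgroupOf.mp (hall ⟨y, hy⟩)

end Cfsg.Agent.Lib.Helper6.CS3
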