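-- Team project CS3 (S4284), part [END], package [II3] (helper6).
import Mathlib
import Cfsg.Agent.Lib.Helper79.CS3.EndDefs

set_option autoImplicit false

namespace Cfsg.Agent.Lib.Helper6.CS3

open Cfsg.Agent.Lib.Helper79.CS3 Cfsg.Agent.Lib.Helper81.CS3

universe u

theorem ii3_mem_cent {G : Type u} [Group G] (a g : G) :
    g ∈ Subgroup.centralizer ({a} : Set G) ↔ a * g = g * a := by
  rw [Subgroup.mem_centralizer_iff]
  simp

/-- If `x ^ p = 1` and `p ∤ j` then `x` is a power of `x ^ j`. -/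
theorem ii3_pow_back {G : Type u} [Group G] {p : ℕ} (hp : p.Prime) {x : G} (hx : x ^ p = 1)
    {j : ℕ} (hj : ¬ p ∣ j) : ∃ a : ℕ, x = (x ^ j) ^ a := by
  have hcop : Nat.Coprime j p := Nat.Coprime.symm ((Nat.Prime.coprime_iff_not_dvd hp).mpr hj)
  obtain ⟨a, -, ha⟩ := Nat.exists_mul_mod_eq_one_of_coprime hcop hp.one_lt
  refine ⟨a, ?_⟩
  rw [← pow_mul, pow_eq_pow_mod (j * a) hx, ha, pow_one]

/-- [II3] -/
theorem pkgII3_of (hII12 : PkgII12.{u}) (hPCen : PkgPCen.{u}) (hFPF : PkgFPF.{u})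
    (hE6 : PkgE6.{u}) (hE7 : PkgE7.{u}) (hE4 : PkgE4.{u}) : PkgII3.{u} := by
  intro G _ _ m n Q P p hS hII
  have hp := hS.pp
  obtain ⟨j, hj⟩ := hS.pm
  have hm1 : 1 < m := hS.s0.hyp.2.1
  rcases j with _ | _ | j
  · rw [pow_zero] at hj; omega
  · rw [hj]; simp
  exfalso
  -- `P` is not abelian
  have hnab : ∃ x ∈ P, ∃ g ∈ P, x * g ≠ g * x := by
    by_contra hab
    push Not at hab
    apply (hE4 m n Q P hS.s0).1
    intro x hx
    exact Subgroup.center_le_centralizer _ (hE6 m n Q P p hS x hx (hab x hx))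
  obtain ⟨w0, hw0P, ⟨g0, hg0P, hne0⟩, hK1, hK2⟩ := hPCen p P P hp hS.pg le_rfl
    (fun g hg x hx => P.mul_mem (P.mul_mem hg hx) (P.inv_mem hg)) hnab
  have hw0Z : w0 ∉ Subgroup.center G := by
    intro hz
    exact hne0 ((Subgroup.mem_center_iff.mp hz g0).symm)
  obtain ⟨hidx, -, y0, hy0Q, hy0Z, hy0iff⟩ := hII12 m n Q P p hS hII w0 hw0P hw0Z
  -- commutators with `w0` are central in `G`
  have hc0 : ∀ g ∈ P, w0 * g * w0⁻¹ * g⁻¹ ∈ Subgroup.center G := by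
    intro g hg
    apply hE6 m n Q P p hS _
      (P.mul_mem (P.mul_mem (P.mul_mem hw0P hg) (P.inv_mem hw0P)) (P.inv_mem hg))
    intro y hy
    exact hK1 g hg y hy
  have hcz : ∀ g ∈ P, ∀ x : G, (w0 * g * w0⁻¹ * g⁻¹) * x = x * (w0 * g * w0⁻¹ * g⁻¹) := by
    intro g hg x
    exact (Subgroup.mem_center_iff.mp (hc0 g hg) x).symm
  let cP : ↥P →* G :=
    { toFun := fun g => w0 * g * w0⁻¹ * (g : G)⁻¹
      map_one' := by simp
      map_mul' := by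
        intro a b
        have hz := hcz b b.2 (a : G)⁻¹
        show w0 * ((a : G) * b) * w0⁻¹ * ((a : G) * b)⁻¹
          = (w0 * a * w0⁻¹ * (a : G)⁻¹) * (w0 * b * w0⁻¹ * (b : G)⁻¹)
        calc w0 * ((a : G) * b) * w0⁻¹ * ((a : G) * b)⁻¹
            = w0 * a * w0⁻¹ * ((w0 * b * w0⁻¹ * (b : G)⁻¹) * (a : G)⁻¹) := by group
          _ = w0 * a * w0⁻¹ * ((a : G)⁻¹ * (w0 * b * w0⁻¹ * (b : G)⁻¹)) := by rw [hz]
          _ = (w0 * a * w0⁻¹ * (a : G)⁻¹) * (w0 * b * w0⁻¹ * (b : G)⁻¹) := by group }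
  have hcP : ∀ g : ↥P, cP g = w0 * g * w0⁻¹ * (g : G)⁻¹ := fun g => rfl
  have hcomm : ∀ a b : ↥P, cP a * cP b = cP b * cP a := by
    intro a b
    rw [hcP a]; exact hcz a a.2 (cP b)
  have hker : ∀ g : ↥P, cP g = 1 ↔ (g : G) * w0 = w0 * g := by
    intro g
    rw [hcP]
    constructor
    · intro h
      have h1 : w0 * g * w0⁻¹ = g := by rw [mul_inv_eq_one] at h; exact h
      have h2 : w0 * g = g * w0 := by rw [mul_inv_eq_iff_eq_mul] at h1; exact h1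
      exact h2.symm
    · intro h
      rw [← h]; group
  have hcp : ∀ g : ↥P, cP g ^ p = 1 := by
    intro g
    have hz : Commute (cP g)⁻¹ w0 := by
      have h0 : Commute (cP g) w0 := hcz g g.2 w0
      exact h0.inv_left
    have h1 : (g : G) * w0 * (g : G)⁻¹ = (cP g)⁻¹ * w0 := by rw [hcP]; group
    have h2 : (g : G) * w0 ^ p * (g : G)⁻¹ = w0 ^ p := by
      rw [← hK2 g g.2, mul_inv_cancel_right]
    have h3 : ((g : G) * w0 * (g : G)⁻¹) ^ p = (g : G) * w0 ^ p * (g : G)⁻¹ := conj_pow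
    rw [h1, hz.mul_pow, h2] at h3
    have h4 : (cP g)⁻¹ ^ p = 1 := mul_right_cancel (h3.trans (one_mul _).symm)
    rw [inv_pow, inv_eq_one] at h4
    exact h4
  have hkerS : cP.ker = (Subgroup.centralizer ({w0} : Set G)).subgroupOf P := by
    ext g
    rw [MonoidHom.mem_ker, hker, Subgroup.mem_subgroupOf, ii3_mem_cent]
    exact eq_comm
  have hcard : Nat.card cP.range = p ^ (j + 1 + 1) := by
    rw [← Subgroup.index_ker, hkerS, ← hj]
    exact hidx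
  have hcard_lt : p < Nat.card cP.range := by
    rw [hcard]
    calc p = p ^ 1 := (pow_one p).symm
      _ < p ^ (j + 1 + 1) := Nat.pow_lt_pow_right hp.one_lt (by omega)
  obtain ⟨⟨g, hgP⟩, hg1⟩ : ∃ g1 : ↥P, cP g1 ≠ 1 := by
    by_contra hall
    push Not at hall
    have hbot : cP.range = ⊥ := by
      rw [eq_bot_iff]
      rintro _ ⟨g, rfl⟩
      rw [Subgroup.mem_bot]; exact hall g
    rw [hbot, Subgroup.card_bot] at hcard_lt
    have := hp.two_le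
    omega
  have hord1 : orderOf (cP ⟨g, hgP⟩) = p := by
    have h1 : orderOf (cP ⟨g, hgP⟩) ∣ p := orderOf_dvd_of_pow_eq_one (hcp _)
    rcases (Nat.dvd_prime hp).mp h1 with h | h
    · exact absurd (orderOf_eq_one_iff.mp h) hg1
    · exact h
  obtain ⟨⟨h, hhP⟩, hg2⟩ : ∃ g2 : ↥P, cP g2 ∉ Subgroup.zpowers (cP ⟨g, hgP⟩) := by
    by_contra hall
    push Not at hall
    have hle : cP.range ≤ Subgroup.zpowers (cP ⟨g, hgP⟩) := by
      rintro _ ⟨x, rfl⟩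
      exact hall x
    have h1 := Subgroup.card_le_of_le hle
    rw [Nat.card_zpowers, hord1] at h1
    omega
  have hind : ∀ i k : ℕ, ¬ (p ∣ i ∧ p ∣ k) → cP ⟨g, hgP⟩ ^ i * cP ⟨h, hhP⟩ ^ k ≠ 1 := by
    intro i k hik h1
    by_cases hk : p ∣ k
    · obtain ⟨t, rfl⟩ := hk
      rw [pow_mul, hcp, one_pow, mul_one] at h1
      have h2 : orderOf (cP ⟨g, hgP⟩) ∣ i := orderOf_dvd_of_pow_eq_one h1
      rw [hord1] at h2
      exact hik ⟨h2, dvd_mul_right p t⟩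
    · obtain ⟨a, ha⟩ := ii3_pow_back hp (hcp ⟨h, hhP⟩) hk
      apply hg2
      rw [ha]
      have h2 : cP ⟨h, hhP⟩ ^ k = (cP ⟨g, hgP⟩ ^ i)⁻¹ := eq_inv_of_mul_eq_one_right h1
      rw [h2]
      exact Subgroup.pow_mem _
        (Subgroup.inv_mem _ (Subgroup.pow_mem _ (Subgroup.mem_zpowers _) i)) a
  have hBiff : ∀ (x : G) (hx : x ∈ P), x * w0 = w0 * x ↔ cP ⟨x, hx⟩ = 1 :=
    fun x hx => (hker ⟨x, hx⟩).symm
  have hBn : ∀ x ∈ P, ∀ b ∈ P, b * w0 = w0 * b →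
      (x⁻¹ * b * x) * w0 = w0 * (x⁻¹ * b * x) := by
    intro x hx b hb hbw
    have hmem : x⁻¹ * b * x ∈ P := P.mul_mem (P.mul_mem (P.inv_mem hx) hb) hx
    rw [hBiff _ hmem]
    have h1 : (⟨x⁻¹ * b * x, hmem⟩ : ↥P) = (⟨x, hx⟩ : ↥P)⁻¹ * ⟨b, hb⟩ * ⟨x, hx⟩ := rfl
    rw [h1, map_mul, map_mul, map_inv, (hBiff b hb).mp hbw, mul_one, inv_mul_cancel]
  let S : Set G := {b | b ∈ P ∧ b * w0 = w0 * b}
  let Q0 : Subgroup G := Q ⊓ Subgroup.centralizer S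
  have hQ0 : ∀ y, y ∈ Q0 ↔ y ∈ Q ∧ ∀ b, b ∈ P → b * w0 = w0 * b → b * y = y * b := by
    intro y
    rw [Subgroup.mem_inf, Subgroup.mem_centralizer_iff]
    constructor
    · rintro ⟨h1, h2⟩; exact ⟨h1, fun b hb hbw => h2 b ⟨hb, hbw⟩⟩
    · rintro ⟨h1, h2⟩; exact ⟨h1, fun b hb => h2 b hb.1 hb.2⟩
  have hnorm : ∀ x ∈ P, ∀ y ∈ Q0, x * y * x⁻¹ ∈ Q0 := by
    intro x hx y hy
    obtain ⟨hyQ, hyB⟩ := (hQ0 y).mp hy
    refine (hQ0 _).mpr ⟨hS.s0.qn.conj_mem y hyQ x, ?_⟩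
    intro b hb hbw
    have h1 := hyB (x⁻¹ * b * x) (P.mul_mem (P.mul_mem (P.inv_mem hx) hb) hx)
      (hBn x hx b hb hbw)
    calc b * (x * y * x⁻¹) = x * ((x⁻¹ * b * x) * y) * x⁻¹ := by group
      _ = x * (y * (x⁻¹ * b * x)) * x⁻¹ := by rw [h1]
      _ = x * y * x⁻¹ * b := by group
  have hpowB : ∀ (x : G) (hx : x ∈ P), (x ^ p) * w0 = w0 * (x ^ p) := by
    intro x hx
    rw [hBiff _ (P.pow_mem hx p)]
    have h1 : (⟨x ^ p, P.pow_mem hx p⟩ : ↥P) = (⟨x, hx⟩ : ↥P) ^ p := rfl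
    rw [h1, map_pow, hcp]
  apply hFPF Q0 (Q0 ⊓ Subgroup.center G) p g h hp
  · intro a ha b hb
    exact hS.s0.qc a ((hQ0 a).mp ha).1 b ((hQ0 b).mp hb).1
  · intro hdvd
    have h1 : p ∣ Nat.card Q := hdvd.trans (Subgroup.card_dvd_of_le inf_le_left)
    have h2 : p ∣ m := by rw [hj]; exact dvd_pow_self p (by omega)
    have h3 := Nat.eq_one_of_dvd_coprimes hS.s0.qm h1 h2
    have := hp.two_le
    omega
  · exact inf_le_left
  · intro heq
    have hy0 : y0 ∈ Q0 := (hQ0 y0).mpr ⟨hy0Q, fun b hb hbw => (hy0iff b hb).mp hbw⟩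
    rw [← heq] at hy0
    exact hy0Z hy0.2
  · exact hnorm g hgP
  · exact hnorm h hhP
  · intro y hy
    exact ((hQ0 y).mp hy).2 (g ^ p) (P.pow_mem hgP p) (hpowB g hgP)
  · intro y hy
    exact ((hQ0 y).mp hy).2 (h ^ p) (P.pow_mem hhP p) (hpowB h hhP)
  · intro y hy
    have hkP : (h * g)⁻¹ * (g * h) ∈ P :=
      P.mul_mem (P.inv_mem (P.mul_mem hhP hgP)) (P.mul_mem hgP hhP)
    have hkw : ((h * g)⁻¹ * (g * h)) * w0 = w0 * ((h * g)⁻¹ * (g * h)) := by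
      rw [hBiff _ hkP]
      have h1 : (⟨(h * g)⁻¹ * (g * h), hkP⟩ : ↥P)
          = ((⟨h, hhP⟩ : ↥P) * ⟨g, hgP⟩)⁻¹ * ((⟨g, hgP⟩ : ↥P) * ⟨h, hhP⟩) := rfl
      rw [h1, map_mul, map_inv, map_mul, map_mul, hcomm ⟨g, hgP⟩ ⟨h, hhP⟩, inv_mul_cancel]
    have hk := ((hQ0 y).mp hy).2 _ hkP hkw
    calc g * h * y * (g * h)⁻¹ = h * g * (((h * g)⁻¹ * (g * h)) * y) * (g * h)⁻¹ := by group
      _ = h * g * (y * ((h * g)⁻¹ * (g * h))) * (g * h)⁻¹ := by rw [hk]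
      _ = h * g * y * (h * g)⁻¹ := by group
  · intro i k hik y hy hcomm_y
    refine Subgroup.mem_inf.mpr ⟨hy, ?_⟩
    by_contra hyZ
    have hyQ := ((hQ0 y).mp hy).1
    obtain ⟨hidxy, -⟩ := hE7 m n Q P p hS y hyQ hyZ
    have hle : (Subgroup.centralizer ({w0} : Set G)).subgroupOf P
        ≤ (Subgroup.centralizer ({y} : Set G)).subgroupOf P := by
      intro b hb
      rw [Subgroup.mem_subgroupOf, ii3_mem_cent] at hb ⊢
      exact (((hQ0 y).mp hy).2 b b.2 hb.symm).symm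
    have hrel := Subgroup.relIndex_mul_index hle
    have hB'idx : ((Subgroup.centralizer ({w0} : Set G)).subgroupOf P).index = m := hidx
    have hC'idx : ((Subgroup.centralizer ({y} : Set G)).subgroupOf P).index = m := hidxy
    rw [hB'idx, hC'idx] at hrel
    have hone : ((Subgroup.centralizer ({w0} : Set G)).subgroupOf P).relIndex
        ((Subgroup.centralizer ({y} : Set G)).subgroupOf P) = 1 := by
      have hmpos : 0 < m := by omega
      exact Nat.eq_of_mul_eq_mul_right hmpos (by rw [hrel, one_mul])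
    have hge := Subgroup.relIndex_eq_one.mp hone
    have hxP : g ^ i * h ^ k ∈ P := P.mul_mem (P.pow_mem hgP i) (P.pow_mem hhP k)
    have hxC : (⟨g ^ i * h ^ k, hxP⟩ : ↥P)
        ∈ (Subgroup.centralizer ({y} : Set G)).subgroupOf P := by
      rw [Subgroup.mem_subgroupOf, ii3_mem_cent]
      exact hcomm_y.symm
    have hxB := hge hxC
    rw [Subgroup.mem_subgroupOf, ii3_mem_cent] at hxB
    have h1 := (hBiff _ hxP).mp hxB.symm
    have h2 : (⟨g ^ i * h ^ k, hxP⟩ : ↥P) = (⟨g, hgP⟩ : ↥P) ^ i * (⟨h, hhP⟩ : ↥P) ^ k := rfl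
    rw [h2, map_mul, map_pow, map_pow] at h1
    exact hind i k hik h1

end Cfsg.Agent.Lib.Helper6.CS3
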